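import Mathlib
import Cfsg.Agent.Lib.Helper15.CharTools
import Cfsg.Agent.Lib.Helper81.Schur

/-!
# Averaging a class function over a normal subgroup

`avg K f x = |K|⁻¹ ∑_{k ∈ K} f (x k)`.  For a character `θ` of `N` and `K ⊴ N`, `avg K θ` is the
part of `θ` with `K` in its kernel; `θ - avg K θ` is a character orthogonal to it.
-/

set_option autoImplicit false

namespace Cfsg.Agent.Lib.Helper6.FTAvg

open Cfsg Cfsg.Agent.Lib Cfsg.Agent.Lib.Helper15
open scoped ComplexConjugate

variable {N : Type*} [Group N] [Fintype N]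

noncomputable def avg (K : Subgroup N) [Fintype K] (f : N → ℂ) : N → ℂ :=
  fun x => (Nat.card K : ℂ)⁻¹ * ∑ k : K, f (x * k)

variable (K : Subgroup N) [Fintype K]

theorem cardK_ne : (Nat.card K : ℂ) ≠ 0 := by
  exact_mod_cast (Nat.card_pos (α := K)).ne'

theorem avg_mul_right (f : N → ℂ) (x : N) (k₀ : K) : avg K f (x * k₀) = avg K f x := by
  unfold avg
  congr 1
  rw [← Equiv.sum_comp (Equiv.mulLeft k₀) (fun k : K => f (x * k))]
  refine Finset.sum_congr rfl fun k _ => ?_
  simp [mul_assoc]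

theorem avg_avg (f : N → ℂ) : avg K (avg K f) = avg K f := by
  funext x
  have h : ∀ k : K, avg K f (x * k) = avg K f x := fun k => avg_mul_right K f x k
  change (Nat.card K : ℂ)⁻¹ * ∑ k : K, avg K f (x * k) = avg K f x
  simp only [h, Finset.sum_const, Finset.card_univ, nsmul_eq_mul]
  rw [← Nat.card_eq_fintype_card, ← mul_assoc, inv_mul_cancel₀ (cardK_ne K), one_mul]

theorem avg_sub (f g : N → ℂ) : avg K (f - g) = avg K f - avg K g := by
  funext x
  simp [avg, Finset.sum_sub_distrib, mul_sub]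

theorem avg_smul (c : ℂ) (f : N → ℂ) : avg K (c • f) = c • avg K f := by
  funext x
  simp only [avg, Pi.smul_apply, smul_eq_mul, ← Finset.mul_sum]
  ring

theorem inner_avg_left (f g : N → ℂ) : classInner (avg K f) g = classInner f (avg K g) := by
  unfold classInner
  congr 1
  have h1 : ∑ x : N, avg K f x * conj (g x)
      = (Nat.card K : ℂ)⁻¹ * ∑ k : K, ∑ x : N, f (x * k) * conj (g x) := by
    rw [Finset.sum_comm, Finset.mul_sum]
    refine Finset.sum_congr rfl fun x _ => ?_
    simp only [avg, Finset.sum_mul]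
    rw [mul_assoc, Finset.sum_mul]
  have h2 : ∑ x : N, f x * conj (avg K g x)
      = (Nat.card K : ℂ)⁻¹ * ∑ k : K, ∑ x : N, f x * conj (g (x * k)) := by
    rw [Finset.sum_comm, Finset.mul_sum]
    refine Finset.sum_congr rfl fun x _ => ?_
    simp only [avg, map_mul, map_inv₀, Complex.conj_natCast, map_sum, Finset.mul_sum]
    refine Finset.sum_congr rfl fun k _ => ?_
    ring
  rw [h1, h2]
  congr 1
  rw [← Equiv.sum_comp (Equiv.inv K)]
  refine Finset.sum_congr rfl fun k _ => ?_
  rw [← Equiv.sum_comp (Equiv.mulRight (k : N))]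
  refine Finset.sum_congr rfl fun x _ => ?_
  simp [mul_assoc]

theorem avg_cf [hK : K.Normal] {f : N → ℂ} (hf : IsClassFunction N f) :
    IsClassFunction N (avg K f) := by
  intro x y
  unfold avg
  congr 1
  let e : K ≃ K :=
    { toFun := fun k => ⟨y * k * y⁻¹, hK.conj_mem k k.2 y⟩
      invFun := fun k => ⟨y⁻¹ * k * y, by simpa using hK.conj_mem k k.2 y⁻¹⟩
      left_inv := fun k => by ext; simp [mul_assoc]
      right_inv := fun k => by ext; simp [mul_assoc] }
  rw [← Equiv.sum_comp e]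
  refine Finset.sum_congr rfl fun k _ => ?_
  have : y * x * y⁻¹ * ((e k : K) : N) = y * (x * k) * y⁻¹ := by
    simp [e, mul_assoc]
  rw [this, hf]

theorem avg_irr_eq [hK : K.Normal] {ψ : N → ℂ} (hψ : IsIrrCharacter N ψ) :
    avg K ψ = (avg K ψ 1 / ψ 1) • ψ := by
  funext x
  have hN : (Fintype.card N : ℂ) ≠ 0 := by
    exact_mod_cast Fintype.card_ne_zero
  have h1 : ∀ y : N, ∑ k : K, ψ (x * (y * k * y⁻¹)) = ∑ k : K, ψ (x * k) := by
    intro y
    let e : K ≃ K :=
      { toFun := fun k => ⟨y * k * y⁻¹, hK.conj_mem k k.2 y⟩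
        invFun := fun k => ⟨y⁻¹ * k * y, by simpa using hK.conj_mem k k.2 y⁻¹⟩
        left_inv := fun k => by ext; simp [mul_assoc]
        right_inv := fun k => by ext; simp [mul_assoc] }
    rw [← Equiv.sum_comp e (fun k : K => ψ (x * k))]
    rfl
  have h2 : ∑ k : K, ∑ y : N, ψ (x * (y * k * y⁻¹))
      = (Fintype.card N : ℂ) * ∑ k : K, ψ (x * k) := by
    rw [Finset.sum_comm]
    simp only [h1, Finset.sum_const, Finset.card_univ, nsmul_eq_mul]
  have h3 : ∑ k : K, ∑ y : N, ψ (x * (y * k * y⁻¹))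
      = (Fintype.card N : ℂ) * (ψ x * (∑ k : K, ψ k) / ψ 1) := by
    simp only [Helper81.IsIrrCharacter.sum_mul_conj hψ]
    rw [Finset.mul_sum, Finset.sum_div, Finset.mul_sum]
    refine Finset.sum_congr rfl fun k _ => ?_
    ring
  have h4 : ∑ k : K, ψ (x * k) = ψ x * (∑ k : K, ψ k) / ψ 1 :=
    mul_left_cancel₀ hN (h2.symm.trans h3)
  simp only [avg, Pi.smul_apply, smul_eq_mul, one_mul, h4]
  ring

theorem avg_irr [hK : K.Normal] {ψ : N → ℂ} (hψ : IsIrrCharacter N ψ) :
    avg K ψ = ψ ∨ avg K ψ = 0 := by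
  set c := avg K ψ 1 / ψ 1 with hc
  have h1 : avg K ψ = c • ψ := avg_irr_eq K hψ
  have h2 : avg K (avg K ψ) = avg K ψ := avg_avg K ψ
  rw [h1, avg_smul, h1, smul_smul] at h2
  have h3 := congrFun h2 1
  simp only [Pi.smul_apply, smul_eq_mul] at h3
  have h4 : c * c = c := mul_right_cancel₀ (irr_one_ne_zero hψ) h3
  have h5 : c * (c - 1) = 0 := by rw [mul_sub, h4, mul_one, sub_self]
  rcases mul_eq_zero.1 h5 with h | h
  · right; rw [h1, h, zero_smul]
  · left; rw [h1, sub_eq_zero.1 h, one_smul]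

/-- the part of a character not containing `K` in its kernel is a character -/
theorem char_sub_avg [hK : K.Normal] {θ : N → ℂ} (hθ : IsCharacter N θ) :
    IsCharacter N (θ - avg K θ) := by
  rw [isChar_iff]
  refine ⟨Helper3.IsClassFunction.sub (char_cf hθ) (avg_cf K (char_cf hθ)), fun ψ hψ => ?_⟩
  rw [Helper3.classInner_sub_left, inner_avg_left]
  obtain ⟨n, hn⟩ := inner_nat hθ (irr_char hψ)
  rcases avg_irr K hψ with h | h
  · exact ⟨0, by rw [h]; simp⟩
  · exact ⟨n, by rw [h, hn]; simp⟩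

theorem inner_avg_sub (θ : N → ℂ) : classInner (avg K θ) (θ - avg K θ) = 0 := by
  rw [inner_avg_left, avg_sub, avg_avg, sub_self, Helper3.classInner_zero_right]

/-- the norm of the part of a character not containing `K` in its kernel is at least one -/
theorem one_le_norm [hK : K.Normal] {θ : N → ℂ} (hθ : IsCharacter N θ) (hne : avg K θ ≠ θ) :
    ∃ n : ℕ, 1 ≤ n ∧ classInner (θ - avg K θ) (θ - avg K θ) = n := by
  obtain ⟨n, hn⟩ := inner_nat (char_sub_avg K hθ) (char_sub_avg K hθ)
  refine ⟨n, ?_, hn⟩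
  rcases Nat.eq_zero_or_pos n with h | h
  · exfalso
    rw [h, Nat.cast_zero] at hn
    exact hne (sub_eq_zero.1 (Helper3.classInner_self_eq_zero hn)).symm
  · exact h

theorem norm_split (θ : N → ℂ) :
    classInner θ θ = classInner (avg K θ) (avg K θ)
      + classInner (θ - avg K θ) (θ - avg K θ) := by
  have h0 := inner_avg_sub K θ
  have h1 : classInner (θ - avg K θ) (avg K θ) = 0 := by
    rw [← Helper3.classInner_conj_symm, h0, map_zero]
  have h2 : θ = avg K θ + (θ - avg K θ) := by abel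
  conv_lhs => rw [h2]
  rw [Helper3.classInner_add_left, Helper3.classInner_add_right, Helper3.classInner_add_right,
    h0, h1]
  ring

end Cfsg.Agent.Lib.Helper6.FTAvg
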