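import Mathlib
import Cfsg.Agent.Lib.Helper6.FTAvg

/-!
# The Feit–Thompson bound `χ(1)² > |H| ⟨χ_H, 1_H⟩²`
-/

set_option autoImplicit false

namespace Cfsg.Agent.Lib.Helper6.FTBound

open Cfsg Cfsg.Agent.Lib Cfsg.Agent.Lib.Helper15 Cfsg.Agent.Lib.Helper6.FTAvg
open scoped ComplexConjugate

variable {G : Type*} [Group G]

/-- `g` commutes with a nontrivial element of `H` -/
def cen (H : Subgroup G) (g : G) : Prop := ∃ h ∈ H, h ≠ 1 ∧ h * g = g * h

/-- the hypothesis on centralizers -/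
def Hyp (H : Subgroup G) : Prop :=
  ∀ g : G, g ∉ Subgroup.center G → ∀ a b : G,
    Subgroup.centralizer ({g} : Set G) ⊓ H.map (MulAut.conj a).toMonoidHom ≠ ⊥ →
    Subgroup.centralizer ({g} : Set G) ⊓ H.map (MulAut.conj b).toMonoidHom ≠ ⊥ →
    H.map (MulAut.conj a).toMonoidHom = H.map (MulAut.conj b).toMonoidHom

theorem inf_ne_bot_of_cen {H : Subgroup G} {g a : G} (h : cen H (a⁻¹ * g * a)) :
    Subgroup.centralizer ({g} : Set G) ⊓ H.map (MulAut.conj a).toMonoidHom ≠ ⊥ := by
  obtain ⟨k, hk, hk1, hc⟩ := h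
  intro hbot
  have hmem : a * k * a⁻¹ ∈ Subgroup.centralizer ({g} : Set G) ⊓
      H.map (MulAut.conj a).toMonoidHom := by
    refine Subgroup.mem_inf.2 ⟨?_, Subgroup.mem_map.2 ⟨k, hk, by simp [MulAut.conj_apply]⟩⟩
    rw [Subgroup.mem_centralizer_singleton_iff]
    have h1 : a * (k * (a⁻¹ * g * a)) * a⁻¹ = a * ((a⁻¹ * g * a) * k) * a⁻¹ := by rw [hc]
    simpa [mul_assoc] using h1
  rw [hbot, Subgroup.mem_bot] at hmem
  apply hk1
  have : k = a⁻¹ * (a * k * a⁻¹) * a := by group
  rw [this, hmem]; group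

theorem mem_normalizer_of_map_eq {H : Subgroup G} {a b : G}
    (h : H.map (MulAut.conj a).toMonoidHom = H.map (MulAut.conj b).toMonoidHom) :
    a⁻¹ * b ∈ Subgroup.normalizer (H : Set G) := by
  rw [Subgroup.mem_normalizer_iff]
  intro x
  constructor
  · intro hx
    have h1 : b * x * b⁻¹ ∈ H.map (MulAut.conj b).toMonoidHom :=
      Subgroup.mem_map.2 ⟨x, hx, by simp [MulAut.conj_apply]⟩
    rw [← h] at h1
    obtain ⟨y, hy, hyx⟩ := Subgroup.mem_map.1 h1
    have h2 : a * y * a⁻¹ = b * x * b⁻¹ := by simpa [MulAut.conj_apply] using hyx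
    have h3 : a⁻¹ * b * x * (a⁻¹ * b)⁻¹ = a⁻¹ * (b * x * b⁻¹) * a := by group
    rw [h3, ← h2]
    have : a⁻¹ * (a * y * a⁻¹) * a = y := by group
    rwa [this]
  · intro hx
    have h1 : a * (a⁻¹ * b * x * (a⁻¹ * b)⁻¹) * a⁻¹ ∈ H.map (MulAut.conj a).toMonoidHom :=
      Subgroup.mem_map.2 ⟨_, hx, by simp [MulAut.conj_apply]⟩
    rw [h] at h1
    obtain ⟨y, hy, hyx⟩ := Subgroup.mem_map.1 h1
    have h2 : b * y * b⁻¹ = a * (a⁻¹ * b * x * (a⁻¹ * b)⁻¹) * a⁻¹ := by
      simpa [MulAut.conj_apply] using hyx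
    have h3 : a * (a⁻¹ * b * x * (a⁻¹ * b)⁻¹) * a⁻¹ = b * x * b⁻¹ := by group
    rw [h3] at h2
    have : y = x := by
      have := congrArg (fun t => b⁻¹ * t * b) h2
      simpa [mul_assoc] using this
    rwa [← this]

theorem not_mem_center {H : Subgroup G} (hZ : H ⊓ Subgroup.center G = ⊥) {h : G} (hh : h ∈ H)
    (h1 : h ≠ 1) : h ∉ Subgroup.center G := by
  intro hc
  have : h ∈ H ⊓ Subgroup.center G := ⟨hh, hc⟩
  rw [hZ, Subgroup.mem_bot] at this
  exact h1 this

theorem mem_normalizer_of_cen {H : Subgroup G} (hZ : H ⊓ Subgroup.center G = ⊥) (hone : Hyp H)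
    {g : G} (h : cen H g) : g ∈ Subgroup.normalizer (H : Set G) := by
  obtain ⟨k, hk, hk1, hc⟩ := h
  have hkZ := not_mem_center hZ hk hk1
  have h1 : cen H ((1 : G)⁻¹ * k * 1) := ⟨k, hk, hk1, by simp⟩
  have h2 : cen H (g⁻¹ * k * g) := by
    refine ⟨k, hk, hk1, ?_⟩
    have : g⁻¹ * k * g = k := by rw [mul_assoc, hc, ← mul_assoc, inv_mul_cancel, one_mul]
    rw [this]
  have := mem_normalizer_of_map_eq (hone k hkZ 1 g (inf_ne_bot_of_cen h1) (inf_ne_bot_of_cen h2))
  simpa using this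

theorem count_bound [Fintype G] [DecidableEq G] {H : Subgroup G} (hone : Hyp H) {g : G}
    (hg : g ∉ Subgroup.center G) [DecidablePred fun a : G => cen H (a⁻¹ * g * a)] :
    (Finset.univ.filter (fun a : G => cen H (a⁻¹ * g * a))).card ≤ Nat.card (Subgroup.normalizer (H : Set G)) := by
  classical
  rcases (Finset.univ.filter (fun a : G => cen H (a⁻¹ * g * a))).eq_empty_or_nonempty with h | h
  · rw [h]; simp
  · obtain ⟨a₀, ha₀⟩ := h
    rw [Finset.mem_filter] at ha₀
    have hcard : Nat.card (Subgroup.normalizer (H : Set G))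
        = (Finset.univ.filter (fun x : G => x ∈ Subgroup.normalizer (H : Set G))).card := by
      rw [Nat.card_eq_fintype_card, Fintype.card_subtype]
    rw [hcard]
    refine Finset.card_le_card_of_injOn (fun a => a₀⁻¹ * a) ?_ ?_
    · intro a ha
      have ha' : cen H (a⁻¹ * g * a) := by simpa using ha
      simp only [Finset.coe_filter, Finset.mem_univ, true_and, Set.mem_ofPred_eq]
      exact mem_normalizer_of_map_eq
        (hone g hg a₀ a (inf_ne_bot_of_cen ha₀.2) (inf_ne_bot_of_cen ha'))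
    · intro a _ b _ hab
      exact mul_left_cancel hab

/-- off the elements with nontrivial centralizer in `H`, averaging over `H` does nothing -/
theorem avg_eq_of_not_cen [Fintype G] {H : Subgroup G} [Fintype H] {χ : G → ℂ}
    (hχ : IsClassFunction G χ) {x : G} (hx : x ∈ Subgroup.normalizer (H : Set G)) (hc : ¬ cen H x) :
    avg H χ x = χ x := by
  have hmem : ∀ k : H, x⁻¹ * (k : G)⁻¹ * x * k ∈ H := by
    intro k
    have h1 : x⁻¹ * (k : G)⁻¹ * (x⁻¹)⁻¹ ∈ H :=
      ((Subgroup.mem_normalizer_iff.1 ((Subgroup.normalizer (H : Set G)).inv_mem hx)) _).1 (H.inv_mem k.2)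
    rw [inv_inv] at h1
    exact H.mul_mem h1 k.2
  let c : H → H := fun k => ⟨x⁻¹ * (k : G)⁻¹ * x * k, hmem k⟩
  have hinj : Function.Injective c := by
    intro k k' hkk
    have h1 : x⁻¹ * (k : G)⁻¹ * x * k = x⁻¹ * (k' : G)⁻¹ * x * k' := congrArg Subtype.val hkk
    by_contra hne
    apply hc
    refine ⟨k' * (k : G)⁻¹, H.mul_mem k'.2 (H.inv_mem k.2), ?_, ?_⟩
    · intro h
      apply hne
      ext
      exact (mul_inv_eq_one.1 h).symm
    · have h2 : (k : G)⁻¹ * x * k = (k' : G)⁻¹ * x * k' := by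
        have := congrArg (fun t => x * t) h1
        simpa [mul_assoc] using this
      have h3 : (k' : G) * ((k : G)⁻¹ * x * k) * (k : G)⁻¹
          = (k' : G) * ((k' : G)⁻¹ * x * k') * (k : G)⁻¹ := by rw [h2]
      simpa [mul_assoc] using h3
  have hsurj : Function.Surjective c := Finite.injective_iff_surjective.1 hinj
  have hval : ∀ h : H, χ (x * h) = χ x := by
    intro h
    obtain ⟨k, hk⟩ := hsurj h
    have h1 : x * (h : G) = (k : G)⁻¹ * x * ((k : G)⁻¹)⁻¹ := by
      rw [← hk]; simp [c, mul_assoc]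
    rw [h1, hχ]
  unfold avg
  simp only [hval, Finset.sum_const, Finset.card_univ, nsmul_eq_mul]
  rw [← Nat.card_eq_fintype_card, ← mul_assoc, inv_mul_cancel₀ (cardK_ne H), one_mul]

theorem central_mul [Fintype G] {χ : G → ℂ} (hχ : IsIrrCharacter G χ) {z : G}
    (hz : z ∈ Subgroup.center G) (g : G) : χ (z * g) = χ z * χ g / χ 1 := by
  have h := Helper81.IsIrrCharacter.sum_mul_conj hχ g z
  have h1 : ∀ y : G, g * (y * z * y⁻¹) = z * g := by
    intro y
    have h2 : y * z = z * y := (Subgroup.mem_center_iff.1 hz y)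
    rw [h2, mul_assoc, mul_inv_cancel, mul_one, Subgroup.mem_center_iff.1 hz g]
  simp only [h1, Finset.sum_const, Finset.card_univ, nsmul_eq_mul] at h
  have hN : (Fintype.card G : ℂ) ≠ 0 := by exact_mod_cast Fintype.card_ne_zero
  have : (Fintype.card G : ℂ) * χ (z * g) = (Fintype.card G : ℂ) * (χ z * χ g / χ 1) := by
    rw [h]; ring
  exact mul_left_cancel₀ hN this

theorem avg_central [Fintype G] {H : Subgroup G} [Fintype H] {χ : G → ℂ}
    (hχ : IsIrrCharacter G χ) {z : G} (hz : z ∈ Subgroup.center G) :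
    avg H χ z = χ z / χ 1 * avg H χ 1 := by
  unfold avg
  simp only [central_mul hχ hz, one_mul]
  rw [← Finset.sum_div, ← Finset.mul_sum]
  ring

theorem classInner_self_real {N : Type*} [Group N] [Fintype N] (f : N → ℂ) :
    classInner f f = (((Nat.card N : ℝ)⁻¹ * ∑ x : N, Complex.normSq (f x) : ℝ) : ℂ) := by
  unfold classInner
  push_cast
  congr 1
  refine Finset.sum_congr rfl fun x _ => ?_
  rw [Complex.mul_conj]


theorem avg_subgroupOf [Fintype G] (H : Subgroup G) [Fintype H] (N : Subgroup G) (hHN : H ≤ N)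
    [Fintype (H.subgroupOf N)] (χ : G → ℂ) (x : N) :
    avg (H.subgroupOf N) (fun y : N => χ y) x = avg H χ (x : G) := by
  unfold avg
  rw [Nat.card_congr (Subgroup.subgroupOfEquivOfLe hHN).toEquiv]
  congr 1
  rw [← Equiv.sum_comp (Subgroup.subgroupOfEquivOfLe hHN).toEquiv]
  refine Finset.sum_congr rfl fun k _ => ?_
  simp

/-- **Feit–Thompson**: `|H| ⟨χ_H, 1_H⟩² < χ(1)²`. -/
theorem first [Fintype G] (H : Subgroup G) [Fintype H] (hab : ∀ a ∈ H, ∀ b ∈ H, a * b = b * a)
    (hZ : H ⊓ Subgroup.center G = ⊥) (hone : Hyp H)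
    {χ : G → ℂ} (hχ : IsIrrCharacter G χ) (hker : ∃ h ∈ H, χ h ≠ χ 1) :
    (Nat.card H : ℝ) * Complex.normSq (avg H χ 1) < Complex.normSq (χ 1) := by
  classical
  obtain ⟨h₀, hh₀, hh₀χ⟩ := hker
  have hh₀1 : h₀ ≠ 1 := fun h => hh₀χ (by rw [h])
  set N := Subgroup.normalizer (H : Set G) with hN
  have hHN : H ≤ N := Subgroup.le_normalizer
  set w : G → ℝ := fun g => Complex.normSq (χ g) with hw
  set w1 : G → ℝ := fun g => Complex.normSq (avg H χ g) with hw1
  set w' : G → ℝ := fun g => Complex.normSq (χ g - avg H χ g) with hw'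
  set s : Finset G := Finset.univ.filter (fun g => g ∈ N) with hs
  set T : Finset G := Finset.univ.filter (fun g => cen H g) with hT
  set Zs : Finset G := Finset.univ.filter (fun g => g ∈ Subgroup.center G) with hZs
  set Ds : Finset G := Finset.univ.filter (fun g => g ∉ Subgroup.center G ∧ cen H g) with hDs
  have hcf : IsClassFunction G χ := irr_cf hχ
  have hcN : (0 : ℝ) < Nat.card N := by exact_mod_cast Nat.card_pos
  have hcG : (0 : ℝ) < Nat.card G := by exact_mod_cast Nat.card_pos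
  -- step (a)
  have hKn : (H.subgroupOf N).Normal := Subgroup.normal_in_normalizer
  set θ : N → ℂ := fun y => χ y with hθ
  have hθc : IsCharacter N θ := char_restrict (irr_char hχ) N
  have havg : ∀ x : N, avg (H.subgroupOf N) θ x = avg H χ (x : G) :=
    fun x => avg_subgroupOf H N hHN χ x
  have hsub : ∀ F : G → ℝ, ∑ x : N, F x = ∑ g ∈ s, F g := by
    intro F
    exact (Finset.sum_subtype s (fun g => by simp [hs]) F).symm
  have hsplit : ∑ g ∈ s, w g = ∑ g ∈ s, w1 g + ∑ g ∈ s, w' g := by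
    have h := norm_split (H.subgroupOf N) θ
    rw [classInner_self_real, classInner_self_real, classInner_self_real] at h
    have h' : (Nat.card N : ℝ)⁻¹ * ∑ x : N, Complex.normSq (θ x)
        = (Nat.card N : ℝ)⁻¹ * ∑ x : N, Complex.normSq (avg (H.subgroupOf N) θ x)
          + (Nat.card N : ℝ)⁻¹ * ∑ x : N, Complex.normSq ((θ - avg (H.subgroupOf N) θ) x) := by
      exact_mod_cast h
    rw [← mul_add] at h'
    have h'' := mul_left_cancel₀ (inv_ne_zero hcN.ne') h'
    simp only [Pi.sub_apply, havg] at h''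
    rw [← hsub w, ← hsub w1, ← hsub w']
    exact h''
  have hge : (Nat.card N : ℝ) ≤ ∑ g ∈ s, w' g := by
    have hne : avg (H.subgroupOf N) θ ≠ θ := by
      intro h
      apply hh₀χ
      have h1 := avg_mul_right (H.subgroupOf N) θ 1
        (⟨⟨h₀, hHN hh₀⟩, by simpa [Subgroup.mem_subgroupOf] using hh₀⟩ : H.subgroupOf N)
      rw [h] at h1
      simpa [hθ] using h1
    obtain ⟨n, hn1, hn⟩ := one_le_norm (H.subgroupOf N) hθc hne
    rw [classInner_self_real] at hn
    have hn' : (Nat.card N : ℝ)⁻¹ * ∑ x : N, Complex.normSq ((θ - avg (H.subgroupOf N) θ) x)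
        = (n : ℝ) := by exact_mod_cast hn
    simp only [Pi.sub_apply, havg] at hn'
    have h2 : ∑ x : N, w' x = (Nat.card N : ℝ) * n := by
      have : ∑ x : N, w' x = (Nat.card N : ℝ) * ((Nat.card N : ℝ)⁻¹ * ∑ x : N, w' x) := by
        rw [← mul_assoc, mul_inv_cancel₀ hcN.ne', one_mul]
      rw [this]
      congr 1
    rw [← hsub w', h2]
    have : (1 : ℝ) ≤ n := by exact_mod_cast hn1
    nlinarith
  -- step (b), (c)
  have hTs : T ⊆ s := by
    intro g hg
    simp only [hT, hs, Finset.mem_filter, Finset.mem_univ, true_and] at hg ⊢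
    exact mem_normalizer_of_cen hZ hone hg
  have hsd : ∑ g ∈ s \ T, w g = ∑ g ∈ s \ T, w1 g := by
    refine Finset.sum_congr rfl fun g hg => ?_
    simp only [hT, hs, Finset.mem_sdiff, Finset.mem_filter, Finset.mem_univ, true_and] at hg
    simp only [hw, hw1]
    rw [avg_eq_of_not_cen hcf hg.1 hg.2]
  have hTw : ∑ g ∈ T, w g = ∑ g ∈ T, w1 g + ∑ g ∈ s, w' g := by
    have e1 := Finset.sum_sdiff (f := w) hTs
    have e2 := Finset.sum_sdiff (f := w1) hTs
    linarith
  -- centre lies in T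
  have hZT : ∀ z ∈ Subgroup.center G, cen H z := fun z hz =>
    ⟨h₀, hh₀, hh₀1, (Subgroup.mem_center_iff.1 hz h₀)⟩
  have hTsplit : ∑ g ∈ T, w g = ∑ g ∈ Zs, w g + ∑ g ∈ Ds, w g := by
    rw [← Finset.sum_filter_add_sum_filter_not T (fun g => g ∈ Subgroup.center G) w]
    congr 1
    · refine Finset.sum_congr ?_ fun _ _ => rfl
      ext g
      simp only [hT, hZs, Finset.mem_filter, Finset.mem_univ, true_and]
      exact ⟨fun h => h.2, fun h => ⟨hZT g h, h⟩⟩
    · refine Finset.sum_congr ?_ fun _ _ => rfl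
      ext g
      simp only [hT, hDs, Finset.mem_filter, Finset.mem_univ, true_and]
      exact and_comm
  -- total
  have htot : ∑ g : G, w g = Nat.card G := by
    have h := irr_inner_self hχ
    rw [classInner_self_real] at h
    have h' : (Nat.card G : ℝ)⁻¹ * ∑ x : G, Complex.normSq (χ x) = 1 := by exact_mod_cast h
    have : ∑ g : G, w g = (Nat.card G : ℝ) * ((Nat.card G : ℝ)⁻¹ * ∑ x : G, w x) := by
      rw [← mul_assoc, mul_inv_cancel₀ hcG.ne', one_mul]
    rw [this, h', mul_one]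
  have hwnn : ∀ g, 0 ≤ w g := fun g => Complex.normSq_nonneg _
  have hnotZ : ∑ g : G, (if g ∉ Subgroup.center G then w g else 0)
      = Nat.card G - ∑ g ∈ Zs, w g := by
    rw [← htot, ← Finset.sum_filter_add_sum_filter_not Finset.univ
      (fun g => g ∈ Subgroup.center G) w, ← Finset.sum_filter]
    ring
  -- step (f)
  have hf : (Nat.card G : ℝ) * ∑ g ∈ Ds, w g
      ≤ (Nat.card N : ℝ) * (Nat.card G - ∑ g ∈ Zs, w g) := by
    have e1 : ∀ a : G, ∑ g : G, (if g ∉ Subgroup.center G ∧ cen H (a⁻¹ * g * a) then w g else 0)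
        = ∑ g ∈ Ds, w g := by
      intro a
      rw [← Equiv.sum_comp (MulAut.conj a).toEquiv, hDs, Finset.sum_filter]
      refine Finset.sum_congr rfl fun g _ => ?_
      have h1 : (MulAut.conj a).toEquiv g = a * g * a⁻¹ := by simp [MulAut.conj_apply]
      have h2 : a⁻¹ * (a * g * a⁻¹) * a = g := by group
      have h3 : a * g * a⁻¹ ∈ Subgroup.center G ↔ g ∈ Subgroup.center G := by
        constructor
        · intro h
          have := (inferInstance : (Subgroup.center G).Normal).conj_mem _ h a⁻¹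
          simpa [mul_assoc] using this
        · intro h
          exact (inferInstance : (Subgroup.center G).Normal).conj_mem _ h a
      have h4 : w (a * g * a⁻¹) = w g := by simp only [hw]; rw [hcf]
      rw [h1, h2, h4]
      simp only [h3]
    have e2 : ∑ a : G, ∑ g : G,
        (if g ∉ Subgroup.center G ∧ cen H (a⁻¹ * g * a) then w g else 0)
        = (Nat.card G : ℝ) * ∑ g ∈ Ds, w g := by
      simp only [e1, Finset.sum_const, Finset.card_univ, nsmul_eq_mul, Nat.card_eq_fintype_card]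
    rw [← e2, Finset.sum_comm, ← hnotZ, Finset.mul_sum]
    refine Finset.sum_le_sum fun g _ => ?_
    by_cases hg : g ∈ Subgroup.center G
    · simp [hg]
    · simp only [hg, not_false_eq_true, true_and, if_true]
      rw [← Finset.sum_filter, Finset.sum_const, nsmul_eq_mul]
      have := count_bound hone hg
      have h5 : ((Finset.univ.filter (fun a : G => cen H (a⁻¹ * g * a))).card : ℝ)
          ≤ (Nat.card N : ℝ) := by exact_mod_cast this
      exact mul_le_mul_of_nonneg_right h5 (hwnn g)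
  -- step (d)
  set M : ℝ := Complex.normSq (avg H χ 1) with hM
  set n2 : ℝ := Complex.normSq (χ 1) with hn2
  have hn2pos : 0 < n2 := Complex.normSq_pos.2 (irr_one_ne_zero hχ)
  have hd : (Nat.card H : ℝ) * ((∑ g ∈ Zs, w g) * M / n2) ≤ ∑ g ∈ T, w1 g := by
    set P : Finset (H × G) := (Finset.univ : Finset H) ×ˢ Zs with hP
    have hinj : Set.InjOn (fun p : H × G => (p.1 : G) * p.2) (P : Set (H × G)) := by
      rintro ⟨h, z⟩ hp ⟨h', z'⟩ hp' heq
      simp only [hP, hZs, Finset.coe_product, Finset.coe_univ, Finset.coe_filter, Finset.mem_univ,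
        true_and, Set.mem_prod, Set.mem_univ, Set.mem_ofPred_eq] at hp hp'
      have heq' : (h : G) * z = (h' : G) * z' := heq
      have h1 : (h' : G)⁻¹ * h = z' * z⁻¹ := by
        rw [eq_mul_inv_iff_mul_eq, mul_assoc, heq', ← mul_assoc, inv_mul_cancel, one_mul]
      have h2 : (h' : G)⁻¹ * h ∈ H ⊓ Subgroup.center G :=
        ⟨H.mul_mem (H.inv_mem h'.2) h.2, by
          rw [h1]; exact (Subgroup.center G).mul_mem hp' ((Subgroup.center G).inv_mem hp)⟩
      rw [hZ, Subgroup.mem_bot] at h2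
      have h3 : (h : G) = h' := (inv_mul_eq_one.1 h2).symm
      have h4 : z = z' := by
        rw [h3] at heq'
        exact mul_left_cancel heq'
      ext
      · exact h3
      · exact h4
    have hsubset : P.image (fun p : H × G => (p.1 : G) * p.2) ⊆ T := by
      intro g hg
      obtain ⟨⟨h, z⟩, hp, rfl⟩ := Finset.mem_image.1 hg
      simp only [hP, hZs, Finset.mem_product, Finset.mem_univ, Finset.mem_filter, true_and] at hp
      simp only [hT, Finset.mem_filter, Finset.mem_univ, true_and]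
      refine ⟨h₀, hh₀, hh₀1, ?_⟩
      rw [← mul_assoc, hab h₀ hh₀ h h.2, mul_assoc, Subgroup.mem_center_iff.1 hp h₀, mul_assoc]
    have hle : ∑ g ∈ P.image (fun p : H × G => (p.1 : G) * p.2), w1 g ≤ ∑ g ∈ T, w1 g :=
      Finset.sum_le_sum_of_subset_of_nonneg hsubset fun _ _ _ => Complex.normSq_nonneg _
    refine le_trans (le_of_eq ?_) hle
    rw [Finset.sum_image hinj, hP, Finset.sum_product]
    have hval : ∀ h : H, ∀ z ∈ Zs, w1 ((h : G) * z) = w z * M / n2 := by
      intro h z hz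
      simp only [hZs, Finset.mem_filter, Finset.mem_univ, true_and] at hz
      simp only [hw1, hw]
      rw [Subgroup.mem_center_iff.1 hz (h : G), avg_mul_right, avg_central hχ hz, map_mul, map_div₀]
      ring
    have : ∀ h : H, ∑ z ∈ Zs, w1 ((h : G) * z) = (∑ g ∈ Zs, w g) * M / n2 := by
      intro h
      rw [Finset.sum_congr rfl (hval h), Finset.sum_mul, Finset.sum_div]
    simp only [this, Finset.sum_const, Finset.card_univ, nsmul_eq_mul, Nat.card_eq_fintype_card]
  -- conclusion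
  set SZ := ∑ g ∈ Zs, w g with hSZ
  set SD := ∑ g ∈ Ds, w g with hSD
  have hSZpos : 0 < SZ := by
    have h1 : w 1 ≤ SZ := Finset.single_le_sum (fun g _ => hwnn g)
      (by simp [hZs])
    exact lt_of_lt_of_le hn2pos h1
  set q : ℝ := (Nat.card H : ℝ) * M / n2 with hq
  have hq1 : (Nat.card H : ℝ) * (SZ * M / n2) = q * SZ := by rw [hq]; ring
  have hmain : (Nat.card G : ℝ) * (q * SZ) < (Nat.card G : ℝ) * SZ := by
    have h1 : q * SZ + (Nat.card N : ℝ) ≤ SZ + SD := by
      rw [← hq1]; linarith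
    have h2 : (Nat.card G : ℝ) * (q * SZ + (Nat.card N : ℝ)) ≤ (Nat.card G : ℝ) * (SZ + SD) :=
      mul_le_mul_of_nonneg_left h1 hcG.le
    have h3 : 0 < (Nat.card N : ℝ) * SZ := mul_pos hcN hSZpos
    nlinarith
  have hq2 : q < 1 := by
    have h1 : q * SZ < SZ := lt_of_mul_lt_mul_left hmain hcG.le
    by_contra hcon
    push Not at hcon
    nlinarith
  have : (Nat.card H : ℝ) * M = q * n2 := by
    rw [hq]; field_simp
  rw [this]
  nlinarith

end Cfsg.Agent.Lib.Helper6.FTBound
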