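import Mathlib
import Cfsg.Agent.Lib.Helper6.FTBound
import Cfsg.Agent.Lib.Helper80.Linear
import Cfsg.Agent.Lib.Helper80.Inflation
import Cfsg.Agent.Lib.Helper3.Perm

/-!
# The Feit–Thompson bound `(1 + χ(1))² > |H|`
-/

set_option autoImplicit false

namespace Cfsg.Agent.Lib.Helper6.FTBound

open Cfsg Cfsg.Agent.Lib Cfsg.Agent.Lib.Helper15 Cfsg.Agent.Lib.Helper6.FTAvg
open scoped ComplexConjugate

variable {G : Type*} [Group G]

theorem avg_one_eq_inner [Fintype G] (H : Subgroup G) [Fintype H] (θ : G → ℂ) :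
    avg H θ 1 = classInner (fun h : H => θ h) (fun _ => 1) := by
  simp [avg, classInner]

theorem avg_one_nat [Fintype G] (H : Subgroup G) [Fintype H] {θ : G → ℂ} (hθ : IsCharacter G θ) :
    ∃ k : ℕ, avg H θ 1 = k := by
  rw [avg_one_eq_inner]
  exact inner_nat (char_restrict hθ H) (irr_char Helper3.isIrrCharacter_one)

/-- in an abelian group the norm of a character is at least its degree -/
theorem degree_le_norm {A : Type*} [Group A] [Fintype A] (hA : ∀ a b : A, a * b = b * a)
    {β : A → ℂ} (hβ : IsCharacter A β) {n k : ℕ} (hn : β 1 = n) (hk : classInner β β = k) :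
    n ≤ k := by
  classical
  haveI := Fintype.ofFinite (IrrCharacter A)
  have hc : ∀ lam : IrrCharacter A, ∃ a : ℕ, classInner β lam = a :=
    fun lam => inner_nat hβ (irr_char lam.2)
  choose a ha using hc
  have h1 : (n : ℂ) = ∑ lam : IrrCharacter A, (a lam : ℂ) := by
    rw [← hn]
    conv_lhs => rw [cf_expansion (char_cf hβ)]
    simp only [Finset.sum_apply, Pi.smul_apply, smul_eq_mul, ha,
      Helper80.char_one_eq_one_of_comm hA, mul_one]
  have h2 : (k : ℂ) = ∑ lam : IrrCharacter A, (a lam : ℂ) * (a lam : ℂ) := by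
    rw [← hk, Helper3.classInner_eq_sum_coeff (char_cf hβ)]
    refine Finset.sum_congr rfl fun lam _ => ?_
    rw [← inner_comm_of_char hβ (irr_char lam.2), ha]
  have h1' : n = ∑ lam : IrrCharacter A, a lam := by exact_mod_cast h1
  have h2' : k = ∑ lam : IrrCharacter A, a lam * a lam := by exact_mod_cast h2
  rw [h1', h2']
  exact Finset.sum_le_sum fun lam _ => Nat.le_mul_self _

theorem exists_ne_of_ne_one [Fintype G] (H : Subgroup G)
    (hM : ∀ M : Subgroup G, M.Normal → H ≤ M → M = ⊤) {θ : G → ℂ} (hθ : IsIrrCharacter G θ)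
    (hne : θ ≠ fun _ => 1) : ∃ h ∈ H, θ h ≠ θ 1 := by
  by_contra hcon
  push Not at hcon
  have htop := hM (Helper80.charKer θ (irr_char hθ)) (Helper80.charKer_normal _)
    (fun h hh => hcon h hh)
  have hall : ∀ g : G, θ g = θ 1 := by
    intro g
    have : g ∈ Helper80.charKer θ (irr_char hθ) := by rw [htop]; trivial
    exact this
  apply hne
  apply irr_eq_of_inner_ne_zero hθ Helper3.isIrrCharacter_one
  have : classInner θ (fun _ => (1 : ℂ)) = θ 1 := by
    unfold classInner
    simp only [hall, map_one, mul_one, Finset.sum_const, Finset.card_univ, nsmul_eq_mul]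
    rw [← Nat.card_eq_fintype_card, ← mul_assoc, inv_mul_cancel₀, one_mul]
    exact_mod_cast (Nat.card_pos (α := G)).ne'
  rw [this]
  exact irr_one_ne_zero hθ

theorem second [Fintype G] (H : Subgroup G) [Fintype H] (hab : ∀ a ∈ H, ∀ b ∈ H, a * b = b * a)
    (hZ : H ⊓ Subgroup.center G = ⊥) (hone : Hyp H)
    {χ : G → ℂ} (hχ : IsIrrCharacter G χ) {n : ℕ} (hn : χ 1 = n) (hn1 : n ≠ 1)
    (hM : ∀ M : Subgroup G, M.Normal → H ≤ M → M = ⊤) :
    Nat.card H < (1 + n) ^ 2 := by
  classical
  haveI := Fintype.ofFinite (IrrCharacter G)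
  by_contra hcon
  push Not at hcon
  have hn0 : n ≠ 0 := by
    intro h
    apply irr_one_ne_zero hχ
    rw [hn, h, Nat.cast_zero]
  set α : G → ℂ := χ * fun g => conj (χ g) with hα
  have hαc : IsCharacter G α :=
    Helper3.IsCharacter.mul (irr_char hχ) (Helper3.IsCharacter.conj (irr_char hχ))
  have hc : ∀ θ : IrrCharacter G, ∃ a : ℕ, classInner α θ = a :=
    fun θ => inner_nat hαc (irr_char θ.2)
  choose c hc using hc
  have hd : ∀ θ : IrrCharacter G, ∃ a : ℕ, (θ : G → ℂ) 1 = a := fun θ => char_one_nat (irr_char θ.2)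
  choose d hd using hd
  have hm : ∀ θ : IrrCharacter G, ∃ a : ℕ, avg H (θ : G → ℂ) 1 = a :=
    fun θ => avg_one_nat H (irr_char θ.2)
  choose m hm using hm
  have hexp := cf_expansion (char_cf hαc)
  -- degree
  have e1 : n * n = ∑ θ : IrrCharacter G, c θ * d θ := by
    have : (n : ℂ) * n = ∑ θ : IrrCharacter G, (c θ : ℂ) * d θ := by
      have h1 : α 1 = (n : ℂ) * n := by simp [hα, hn]
      rw [← h1]
      conv_lhs => rw [hexp]
      simp only [Finset.sum_apply, Pi.smul_apply, smul_eq_mul, hc, hd]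
    exact_mod_cast this
  -- fixed points
  obtain ⟨A, hA⟩ := avg_one_nat H hαc
  have e2 : A = ∑ θ : IrrCharacter G, c θ * m θ := by
    have : (A : ℂ) = ∑ θ : IrrCharacter G, (c θ : ℂ) * m θ := by
      rw [← hA]
      conv_lhs => rw [hexp]
      simp only [avg, Finset.sum_apply, Pi.smul_apply, smul_eq_mul, hc]
      rw [Finset.sum_comm, Finset.mul_sum]
      refine Finset.sum_congr rfl fun θ _ => ?_
      rw [← hm θ]
      simp only [avg, ← Finset.mul_sum]
      ring
    exact_mod_cast this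
  have hAn : n ≤ A := by
    refine degree_le_norm (A := H) (fun a b => Subtype.ext (hab a a.2 b b.2))
      (char_restrict (irr_char hχ) H) (by simpa using hn) ?_
    rw [← hA]
    simp [avg, classInner, hα]
  -- the trivial character
  set t : IrrCharacter G := ⟨fun _ => 1, Helper3.isIrrCharacter_one⟩ with ht
  have hct : c t = 1 := by
    have : (c t : ℂ) = 1 := by
      rw [← hc t, ← irr_inner_self hχ]
      simp [classInner, hα, ht]
    exact_mod_cast this
  have hdt : d t = 1 := by
    have : (d t : ℂ) = 1 := by rw [← hd t]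
    exact_mod_cast this
  have hmt : m t = 1 := by
    have : (m t : ℂ) = 1 := by
      rw [← hm t]
      simp only [avg, ht, Finset.sum_const, Finset.card_univ, nsmul_eq_mul, mul_one]
      rw [← Nat.card_eq_fintype_card, inv_mul_cancel₀ (cardK_ne H)]
    exact_mod_cast this
  -- the key inequality
  have hkey : ∀ θ : IrrCharacter G, θ ≠ t → (1 + n) * m θ < d θ := by
    intro θ hθ
    have hne : (θ : G → ℂ) ≠ fun _ => 1 := fun h => hθ (Subtype.ext h)
    have h1 := first H hab hZ hone θ.2 (exists_ne_of_ne_one H hM θ.2 hne)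
    rw [hm θ, hd θ, Complex.normSq_natCast, Complex.normSq_natCast] at h1
    have h2 : Nat.card H * (m θ * m θ) < d θ * d θ := by exact_mod_cast h1
    have h3 : ((1 + n) * m θ) ^ 2 < d θ ^ 2 := by
      calc ((1 + n) * m θ) ^ 2 = (1 + n) ^ 2 * (m θ * m θ) := by ring
        _ ≤ Nat.card H * (m θ * m θ) := Nat.mul_le_mul_right _ hcon
        _ < d θ * d θ := h2
        _ = d θ ^ 2 := by ring
    exact lt_of_pow_lt_pow_left₀ 2 (Nat.zero_le _) h3
  -- summing up
  have s1 := Finset.add_sum_erase Finset.univ (fun θ => c θ * d θ) (Finset.mem_univ t)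
  have s2 := Finset.add_sum_erase Finset.univ (fun θ => c θ * m θ) (Finset.mem_univ t)
  simp only [hct, hdt, hmt, mul_one] at s1 s2
  rw [← e1] at s1
  rw [← e2] at s2
  have hle : (1 + n) * ∑ θ ∈ Finset.univ.erase t, c θ * m θ
      ≤ ∑ θ ∈ Finset.univ.erase t, c θ * d θ := by
    rw [Finset.mul_sum]
    refine Finset.sum_le_sum fun θ hθ => ?_
    have := (hkey θ (Finset.ne_of_mem_erase hθ)).le
    calc (1 + n) * (c θ * m θ) = c θ * ((1 + n) * m θ) := by ring
      _ ≤ c θ * d θ := Nat.mul_le_mul_left _ this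
  by_cases hall : ∀ θ ∈ Finset.univ.erase t, c θ = 0
  · have : ∑ θ ∈ Finset.univ.erase t, c θ * d θ = 0 :=
      Finset.sum_eq_zero fun θ hθ => by rw [hall θ hθ, zero_mul]
    rw [this] at s1
    have h2 : n * n = 1 := by omega
    exact hn1 (Nat.eq_one_of_mul_eq_one_right h2)
  · push Not at hall
    obtain ⟨θ₀, hθ₀, hcθ₀⟩ := hall
    have hlt : (1 + n) * ∑ θ ∈ Finset.univ.erase t, c θ * m θ
        < ∑ θ ∈ Finset.univ.erase t, c θ * d θ := by
      rw [Finset.mul_sum]
      refine Finset.sum_lt_sum (fun θ hθ => ?_) ⟨θ₀, hθ₀, ?_⟩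
      · have := (hkey θ (Finset.ne_of_mem_erase hθ)).le
        calc (1 + n) * (c θ * m θ) = c θ * ((1 + n) * m θ) := by ring
          _ ≤ c θ * d θ := Nat.mul_le_mul_left _ this
      · have := hkey θ₀ (Finset.ne_of_mem_erase hθ₀)
        calc (1 + n) * (c θ₀ * m θ₀) = c θ₀ * ((1 + n) * m θ₀) := by ring
          _ < c θ₀ * d θ₀ := Nat.mul_lt_mul_of_pos_left this (Nat.pos_of_ne_zero hcθ₀)
    -- (1+n)(A-1) < n^2 - 1 and A ≥ n
    set X := ∑ θ ∈ Finset.univ.erase t, c θ * m θ with hX
    set Y := ∑ θ ∈ Finset.univ.erase t, c θ * d θ with hY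
    have h1 : n ≤ 1 + X := by omega
    have h2 : (1 + n) * n ≤ (1 + n) * (1 + X) := Nat.mul_le_mul_left _ h1
    nlinarith

end Cfsg.Agent.Lib.Helper6.FTBound
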