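import Mathlib

set_option autoImplicit false

/-! # McKay's count: `p ∣ |G|` implies `p ∣ #{x | x ^ p = 1}` -/

namespace Cfsg.Agent.Lib.Helper6.McKay

open Equiv Equiv.Perm

set_option backward.isDefEq.respectTransparency false in
theorem dvd_card_filter_pow_eq_one {G : Type*} [Group G] [Fintype G] [DecidableEq G] (p : ℕ)
    [hp : Fact p.Prime] (hdvd : p ∣ Fintype.card G) :
    p ∣ (Finset.univ.filter (fun x : G => x ^ p = 1)).card := by
  classical
  have hp' : p - 1 ≠ 0 := mt tsub_eq_zero_iff_le.mp (not_le_of_gt hp.out.one_lt)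
  have Scard :=
    calc
      p ∣ Fintype.card G ^ (p - 1) := hdvd.trans (dvd_pow (dvd_refl _) hp')
      _ = Fintype.card (vectorsProdEqOne G p) := (VectorsProdEqOne.card G p).symm
  let f : ℕ → vectorsProdEqOne G p → vectorsProdEqOne G p := fun k v =>
    VectorsProdEqOne.rotate v k
  have hf1 : ∀ v, f 0 v = v := VectorsProdEqOne.rotate_zero
  have hf2 : ∀ j k v, f k (f j v) = f (j + k) v := fun j k v =>
    VectorsProdEqOne.rotate_rotate v j k
  have hf3 : ∀ v, f p v = v := VectorsProdEqOne.rotate_length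
  let σ : Equiv.Perm (vectorsProdEqOne G p) :=
    Equiv.mk (f 1) (f (p - 1)) (fun s => by rw [hf2, add_tsub_cancel_of_le hp.out.one_lt.le, hf3])
      fun s => by rw [hf2, tsub_add_cancel_of_le hp.out.one_lt.le, hf3]
  have hσ : ∀ k v, (σ ^ k) v = f k v := fun k =>
    Nat.rec (fun v => (hf1 v).symm) (fun k hk v => by
      rw [pow_succ, Perm.mul_apply, hk (σ v), Nat.succ_eq_one_add, ← hf2 1 k]
      simp only [σ, coe_fn_mk]) k
  replace hσ : σ ^ p ^ 1 = 1 := Perm.ext fun v => by rw [pow_one, hσ, hf3, one_apply]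
  have hmod := Equiv.Perm.card_compl_support_modEq hσ
  have hcard : (Finset.univ.filter (fun x : G => x ^ p = 1)).card = σ.supportᶜ.card := by
    refine Finset.card_bij (fun x hx => (⟨List.Vector.replicate p x,
      (List.prod_replicate p x).trans (Finset.mem_filter.1 hx).2⟩ : vectorsProdEqOne G p)) ?_ ?_ ?_
    · intro x hx
      rw [Finset.mem_compl, Equiv.Perm.mem_support, not_not]
      exact Subtype.ext (Subtype.ext (List.rotate_replicate x p 1))
    · intro x hx y hy hxy
      have h1 : List.replicate p x = List.replicate p y :=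
        congrArg (fun v : vectorsProdEqOne G p => v.1.1) hxy
      exact (List.replicate_right_inj hp.out.ne_zero).1 h1
    · intro v hv
      rw [Finset.mem_compl, Equiv.Perm.mem_support, not_not] at hv
      obtain ⟨g, hg⟩ := List.rotate_one_eq_self_iff_eq_replicate.mp
        (Subtype.ext_iff.mp (Subtype.ext_iff.mp hv))
      have hgp : g ^ p = 1 := by
        rw [← List.prod_replicate, ← v.1.2, ← hg, show v.val.val.prod = 1 from v.2]
      refine ⟨g, Finset.mem_filter.2 ⟨Finset.mem_univ _, hgp⟩, ?_⟩
      apply Subtype.ext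
      apply Subtype.ext
      rw [hg, v.1.2]
      rfl
  rw [hcard]
  exact (Nat.modEq_zero_iff_dvd).1 (hmod.trans ((Nat.modEq_zero_iff_dvd).2 Scard))

end Cfsg.Agent.Lib.Helper6.McKay
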