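import Cfsg.Agent.Lib.Helper6.McKay

set_option autoImplicit false

/-! # A finite group with a large semiregular family of automorphisms is elementary abelian -/

namespace Cfsg.Agent.Lib.Helper6.SemiregAut

variable {F H : Type*} [Group F] [Finite F] [Finite H]

theorem succ_card_le (cj : H → MulAut F)
    (hsemi : ∀ x : F, x ≠ 1 → Function.Injective (fun h => cj h x))
    (A : Set F) (h1 : (1 : F) ∈ A) (hinv : ∀ h, ∀ x ∈ A, cj h x ∈ A) (x : F) (hx : x ∈ A)
    (hx1 : x ≠ 1) : Nat.card H + 1 ≤ Nat.card A := by
  classical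
  rw [← Finite.card_option]
  let f : Option H → A := fun o => match o with
    | none => ⟨1, h1⟩
    | some h => ⟨cj h x, hinv h x hx⟩
  apply Nat.card_le_card_of_injective f
  intro o o' hoo
  have hne : ∀ h, cj h x ≠ 1 := by
    intro h hh
    exact hx1 ((map_eq_one_iff (cj h) (cj h).injective).1 hh)
  match o, o' with
  | none, none => rfl
  | none, some h => exact absurd (congrArg Subtype.val hoo).symm (hne h)
  | some h, none => exact absurd (congrArg Subtype.val hoo) (hne h)
  | some h, some h' => exact congrArg some (hsemi x hx1 (congrArg Subtype.val hoo))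

theorem eq_bot_or_top (cj : H → MulAut F)
    (hsemi : ∀ x : F, x ≠ 1 → Function.Injective (fun h => cj h x))
    (hcard : Nat.card F ≤ 2 * Nat.card H + 1)
    (K : Subgroup F) (hinv : ∀ h, ∀ x ∈ K, cj h x ∈ K) : K = ⊥ ∨ K = ⊤ := by
  classical
  by_cases hK : K = ⊥
  · left; exact hK
  right
  obtain ⟨⟨x, hx⟩, hx1'⟩ := (Subgroup.ne_bot_iff_exists_ne_one).1 hK
  have hx1 : x ≠ 1 := fun h => hx1' (Subtype.ext h)
  have h1 : Nat.card H + 1 ≤ Nat.card K := succ_card_le cj hsemi (K : Set F) K.one_mem hinv x hx hx1
  obtain ⟨m, hm⟩ := Subgroup.card_subgroup_dvd_card K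
  have hpos : 0 < Nat.card F := Nat.card_pos
  have hm1 : m = 1 := by
    rcases m with _ | _ | m
    · omega
    · rfl
    · exfalso
      have : Nat.card K * (m + 1 + 1) = Nat.card K * m + 2 * Nat.card K := by ring
      have h0 : 0 ≤ Nat.card K * m := Nat.zero_le _
      omega
  rw [hm1, mul_one] at hm
  exact Subgroup.eq_top_of_card_eq K hm.symm

theorem main [Nontrivial F] (cj : H → MulAut F)
    (hsemi : ∀ x : F, x ≠ 1 → Function.Injective (fun h => cj h x))
    (hcard : Nat.card F ≤ 2 * Nat.card H + 1) :
    (∀ x y : F, x * y = y * x) ∧ ∃ p f : ℕ, p.Prime ∧ (∀ x : F, x ^ p = 1) ∧ Nat.card F = p ^ f := by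
  classical
  have : Fintype F := Fintype.ofFinite F
  have hF1 : 1 < Nat.card F := Finite.one_lt_card
  obtain ⟨p, hp, hpF⟩ := Nat.exists_prime_and_dvd (n := Nat.card F) (by omega)
  have : Fact p.Prime := ⟨hp⟩
  -- sets of solutions of `x ^ r = 1`
  have hA : ∀ r : ℕ, r.Prime → r ∣ Nat.card F →
      Nat.card H + 1 ≤ (Finset.univ.filter (fun x : F => x ^ r = 1)).card ∧
      r ∣ (Finset.univ.filter (fun x : F => x ^ r = 1)).card := by
    intro r hr hrF
    have : Fact r.Prime := ⟨hr⟩
    refine ⟨?_, Cfsg.Agent.Lib.Helper6.McKay.dvd_card_filter_pow_eq_one r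
      (by rwa [← Nat.card_eq_fintype_card])⟩
    obtain ⟨x, hx⟩ := exists_prime_orderOf_dvd_card' (G := F) r hrF
    have hx1 : x ≠ 1 := by
      rintro rfl
      rw [orderOf_one] at hx
      exact hr.one_lt.ne hx
    have := succ_card_le cj hsemi {x : F | x ^ r = 1} (one_pow r)
      (fun h y hy => by
        have hy' : y ^ r = 1 := hy
        show (cj h y) ^ r = 1
        rw [← map_pow, hy', map_one]) x (by rw [← hx]; exact pow_orderOf_eq_one x) hx1
    have e : Nat.card {x : F | x ^ r = 1} = (Finset.univ.filter (fun x : F => x ^ r = 1)).card := by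
      rw [Nat.card_eq_fintype_card]
      exact Fintype.card_subtype _
    rw [e] at this
    exact this
  -- `F` is a `p`-group
  have hpgrp : ∀ q : ℕ, q.Prime → q ∣ Nat.card F → q = p := by
    intro q hq hqF
    by_contra hqp
    obtain ⟨hp1, hp2⟩ := hA p hp hpF
    obtain ⟨hq1, -⟩ := hA q hq hqF
    set Ap := Finset.univ.filter (fun x : F => x ^ p = 1) with hAp
    set Aq := Finset.univ.filter (fun x : F => x ^ q = 1) with hAq
    have hint : Ap ∩ Aq = {1} := by
      ext x
      simp only [hAp, hAq, Finset.mem_inter, Finset.mem_filter, Finset.mem_univ, true_and,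
        Finset.mem_singleton]
      constructor
      · rintro ⟨h1, h2⟩
        have hcop : Nat.Coprime p q := (Nat.coprime_primes hp hq).2 (Ne.symm hqp)
        have h3 : orderOf x ∣ Nat.gcd p q :=
          Nat.dvd_gcd (orderOf_dvd_of_pow_eq_one h1) (orderOf_dvd_of_pow_eq_one h2)
        rw [hcop, Nat.dvd_one, orderOf_eq_one_iff] at h3
        exact h3
      · rintro rfl
        simp
    have hun := Finset.card_union_add_card_inter Ap Aq
    rw [hint, Finset.card_singleton] at hun
    have hle : (Ap ∪ Aq).card ≤ Nat.card F := by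
      rw [Nat.card_eq_fintype_card]
      exact Finset.card_le_univ _
    have e1 : Ap.card = Nat.card H + 1 := by omega
    have e2 : Nat.card F = 2 * Nat.card H + 1 := by omega
    have h4 : p ∣ 2 * Ap.card := Dvd.dvd.mul_left hp2 2
    have h5 : p ∣ 2 * Ap.card - Nat.card F := Nat.dvd_sub h4 hpF
    have h6 : 2 * Ap.card - Nat.card F = 1 := by omega
    rw [h6, Nat.dvd_one] at h5
    exact hp.one_lt.ne' h5
  have hcardF : Nat.card F = p ^ (Nat.card F).primeFactorsList.length :=
    Nat.eq_prime_pow_of_unique_prime_dvd (by omega) (fun {d} hd hdF => hpgrp d hd hdF)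
  have hPG : IsPGroup p F := IsPGroup.of_card hcardF
  -- the centre
  have hcen : Subgroup.center F = ⊤ := by
    have hnt : Nontrivial (Subgroup.center F) := hPG.center_nontrivial
    rcases eq_bot_or_top cj hsemi hcard (Subgroup.center F) (by
      intro h x hx
      have hchar : (Subgroup.center F).Characteristic := inferInstance
      have := (Subgroup.characteristic_iff_map_le.1 hchar) (cj h)
      exact this ⟨x, hx, rfl⟩) with h | h
    · exfalso
      rw [Subgroup.nontrivial_iff_ne_bot] at hnt
      exact hnt h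
    · exact h
  have hcomm : ∀ x y : F, x * y = y * x := by
    intro x y
    have hy : y ∈ Subgroup.center F := by rw [hcen]; trivial
    exact ((Subgroup.mem_center_iff.1 hy) x)
  refine ⟨hcomm, p, _, hp, ?_, hcardF⟩
  let K : Subgroup F :=
    { carrier := {x | x ^ p = 1}
      one_mem' := one_pow p
      mul_mem' := by
        intro x y hx hy
        have hx' : x ^ p = 1 := hx
        have hy' : y ^ p = 1 := hy
        show (x * y) ^ p = 1
        rw [(show Commute x y from hcomm x y).mul_pow, hx', hy', one_mul]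
      inv_mem' := by
        intro x hx
        have hx' : x ^ p = 1 := hx
        show (x⁻¹) ^ p = 1
        rw [inv_pow, hx', inv_one] }
  rcases eq_bot_or_top cj hsemi hcard K (by
      intro h y hy
      have hy' : y ^ p = 1 := hy
      show (cj h y) ^ p = 1
      rw [← map_pow, hy', map_one]) with h | h
  · exfalso
    obtain ⟨x, hx⟩ := exists_prime_orderOf_dvd_card' (G := F) p hpF
    have hxK : x ∈ K := by
      show x ^ p = 1
      rw [← hx]; exact pow_orderOf_eq_one x
    rw [h, Subgroup.mem_bot] at hxK
    rw [hxK, orderOf_one] at hx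
    exact hp.one_lt.ne hx
  · intro x
    have : x ∈ K := by rw [h]; trivial
    exact this

end Cfsg.Agent.Lib.Helper6.SemiregAut
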